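import Cfsg.Agent.H545.EA.Fin
import Cfsg.Agent.H212.NM.Ten
import Cfsg.Agent.H128.EA.ElevenFin

/-!
# S3499, V-ALT: alternating socles in dimension at least 13 (helper545; EA10 helper212, helper83; EA11 helper951,
helper128, helper87, helper575)
-/

set_option autoImplicit false

namespace Cfsg.Agent.H545.EA

open Cfsg.Agent.H419.EP Cfsg.Agent.H59.EP

/-- **V-ALT** -/
theorem v_alt (hg : TwoGen.{0}) : BigOf (fun L _ => Cfsg.IsAlternating L) :=
  alt Cfsg.Agent.H212.NM.ea10 Cfsg.Agent.H128.EA.ea11 hg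

end Cfsg.Agent.H545.EA
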